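import Mathlib

/-!
# A dichotomy lemma for a TI family of commuting four-groups

`dich`: let `W i` be pairwise commuting, independent four-groups, `U = ⨆ i, W i`, permuted by a
subgroup `L`, such that `C_G(u) ≤ L` for `u ∈ U \ 1` and such that `u, g u g⁻¹ ∈ U \ 1` forces
`g ∈ L`.  If `n ∉ L` and `n U n⁻¹` meets `L` nontrivially, then `U` and `n U n⁻¹` commute.
-/

set_option autoImplicit false

namespace Cfsg.Agent.Lib.Helper41.KS12

variable {G : Type*} [Group G] {ι : Type*}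

/-- The data of the dichotomy lemma. -/
structure DichSys (W : ι → Subgroup G) (L : Subgroup G) : Prop where
  hW4 : ∀ i, Nat.card ↥(W i) = 4
  hW2 : ∀ i, ∀ w ∈ W i, w * w = 1
  hcomm : ∀ i j, i ≠ j → ∀ a ∈ W i, ∀ b ∈ W j, a * b = b * a
  hind : iSupIndep W
  hperm : ∀ l ∈ L, ∀ i, ∃ j, (W i).map (MulAut.conj l).toMonoidHom = W j
  hP2 : ∀ u ∈ ⨆ i, W i, u ≠ 1 → Subgroup.centralizer ({u} : Set G) ≤ L
  hP3 : ∀ u ∈ ⨆ i, W i, u ≠ 1 → ∀ g : G, g * u * g⁻¹ ∈ ⨆ i, W i → g ∈ L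

theorem conj_mem_of_map_eq {H H' : Subgroup G} {l a : G}
    (h : H.map (MulAut.conj l).toMonoidHom = H') (ha : a ∈ H) : l * a * l⁻¹ ∈ H' := by
  rw [← h]; exact ⟨a, ha, rfl⟩

/-- An involution normalizing an abelian group of exponent 2 has many fixed points. -/
theorem fp_card {U : Subgroup G} [Finite U] (hUc : ∀ a ∈ U, ∀ b ∈ U, a * b = b * a)
    (hU2 : ∀ a ∈ U, a * a = 1) {t : G} (ht : t * t = 1) (htU : ∀ a ∈ U, t * a * t⁻¹ ∈ U) :
    Nat.card U ≤ Nat.card ↥(U ⊓ Subgroup.centralizer {t}) ^ 2 := by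
  have htinv : t⁻¹ = t := inv_eq_of_mul_eq_one_left ht
  have hfin : Finite ↥(U ⊓ Subgroup.centralizer {t}) :=
    Finite.of_injective (Subgroup.inclusion (inf_le_left : U ⊓ Subgroup.centralizer {t} ≤ U))
      (Subgroup.inclusion_injective _)
  let f : ↥U →* ↥U :=
    { toFun := fun a => ⟨a.1 * (t * a.1 * t⁻¹), mul_mem a.2 (htU a.1 a.2)⟩
      map_one' := by ext; simp
      map_mul' := fun a b => by
        ext
        simp only [Subgroup.coe_mul]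
        have := hUc _ b.2 _ (htU a.1 a.2)
        calc a.1 * b.1 * (t * (a.1 * b.1) * t⁻¹)
            = a.1 * (b.1 * (t * a.1 * t⁻¹)) * (t * b.1 * t⁻¹) := by group
          _ = a.1 * ((t * a.1 * t⁻¹) * b.1) * (t * b.1 * t⁻¹) := by rw [this]
          _ = a.1 * (t * a.1 * t⁻¹) * (b.1 * (t * b.1 * t⁻¹)) := by group }
  have hf : ∀ a : ↥U, (f a).1 = a.1 * (t * a.1 * t⁻¹) := fun a => rfl
  have hcard : Nat.card f.ker * Nat.card f.range = Nat.card U := by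
    rw [← Subgroup.index_ker f]
    exact Subgroup.card_mul_index f.ker
  have hkermem : ∀ x : f.ker, x.1.1 ∈ U ⊓ Subgroup.centralizer {t} := by
    intro x
    rw [Subgroup.mem_inf]
    refine ⟨x.1.2, ?_⟩
    rw [Subgroup.mem_centralizer_iff]
    intro y hy
    rw [Set.mem_singleton_iff] at hy
    subst hy
    have hx : f x.1 = 1 := x.2
    have hx' : x.1.1 * (y * x.1.1 * y⁻¹) = 1 := by
      rw [← hf, hx]; rfl
    have hxinv : (x.1.1)⁻¹ = x.1.1 := inv_eq_of_mul_eq_one_left (hU2 _ x.1.2)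
    have h3 : y * x.1.1 * y⁻¹ = x.1.1 := by
      have h4 := eq_inv_of_mul_eq_one_right hx'
      rw [h4, hxinv]
    exact mul_inv_eq_iff_eq_mul.1 h3
  have hrangemem : ∀ y : f.range, y.1.1 ∈ U ⊓ Subgroup.centralizer {t} := by
    intro y
    rw [Subgroup.mem_inf]
    refine ⟨y.1.2, ?_⟩
    rw [Subgroup.mem_centralizer_iff]
    intro s hs
    rw [Set.mem_singleton_iff] at hs
    subst hs
    obtain ⟨a, ha⟩ := y.2
    have hy : y.1.1 = a.1 * (s * a.1 * s⁻¹) := by rw [← ha, hf]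
    rw [hy]
    have h1 : s * a.1 = (s * a.1 * s⁻¹) * s := by group
    have h2 : s * (s * a.1 * s⁻¹) = a.1 * s := by
      calc s * (s * a.1 * s⁻¹) = (s * s) * a.1 * s⁻¹ := by group
        _ = a.1 * s := by rw [ht, one_mul, htinv]
    calc s * (a.1 * (s * a.1 * s⁻¹)) = (s * a.1) * (s * a.1 * s⁻¹) := by group
      _ = (s * a.1 * s⁻¹) * (s * (s * a.1 * s⁻¹)) := by rw [h1]; group
      _ = (s * a.1 * s⁻¹) * (a.1 * s) := by rw [h2]
      _ = ((s * a.1 * s⁻¹) * a.1) * s := by group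
      _ = (a.1 * (s * a.1 * s⁻¹)) * s := by rw [hUc _ (htU a.1 a.2) a.1 a.2]
  have hker : Nat.card f.ker ≤ Nat.card ↥(U ⊓ Subgroup.centralizer {t}) := by
    apply Nat.card_le_card_of_injective
      (fun x : f.ker => (⟨x.1.1, hkermem x⟩ : ↥(U ⊓ Subgroup.centralizer {t})))
    intro x y hxy
    simp only [Subtype.mk.injEq] at hxy
    exact Subtype.ext (Subtype.ext hxy)
  have hrange : Nat.card f.range ≤ Nat.card ↥(U ⊓ Subgroup.centralizer {t}) := by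
    apply Nat.card_le_card_of_injective
      (fun x : f.range => (⟨x.1.1, hrangemem x⟩ : ↥(U ⊓ Subgroup.centralizer {t})))
    intro x y hxy
    simp only [Subtype.mk.injEq] at hxy
    exact Subtype.ext (Subtype.ext hxy)
  calc Nat.card U = Nat.card f.ker * Nat.card f.range := hcard.symm
    _ ≤ Nat.card ↥(U ⊓ Subgroup.centralizer {t}) * Nat.card ↥(U ⊓ Subgroup.centralizer {t}) :=
        Nat.mul_le_mul hker hrange
    _ = Nat.card ↥(U ⊓ Subgroup.centralizer {t}) ^ 2 := (sq _).symm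

namespace DichSys

variable {W : ι → Subgroup G} {L : Subgroup G}

theorem gen_comm (h : DichSys W L) : ∀ i j, ∀ a ∈ W i, ∀ b ∈ W j, a * b = b * a := by
  intro i j a ha b hb
  by_cases hij : i = j
  · subst hij
    have ha' : a⁻¹ = a := inv_eq_of_mul_eq_one_left (h.hW2 i a ha)
    have hb' : b⁻¹ = b := inv_eq_of_mul_eq_one_left (h.hW2 i b hb)
    have hab' : (a * b)⁻¹ = a * b := inv_eq_of_mul_eq_one_left (h.hW2 i (a * b) (mul_mem ha hb))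
    calc a * b = (a * b)⁻¹ := hab'.symm
      _ = b⁻¹ * a⁻¹ := mul_inv_rev a b
      _ = b * a := by rw [ha', hb']
  · exact h.hcomm i j hij a ha b hb

theorem sup_comm (h : DichSys W L) : ∀ a ∈ ⨆ i, W i, ∀ b ∈ ⨆ i, W i, a * b = b * a := by
  have h1 : (⨆ i, W i) ≤ Subgroup.centralizer (⋃ i, (W i : Set G)) :=
    iSup_le (fun i a ha => by
      rw [Subgroup.mem_centralizer_iff]
      rintro g hg
      obtain ⟨j, hj⟩ := Set.mem_iUnion.1 hg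
      exact h.gen_comm j i g hj a ha)
  have h2 : (⨆ i, W i) ≤ Subgroup.centralizer ((⨆ i, W i : Subgroup G) : Set G) :=
    iSup_le (fun i a ha => by
      rw [Subgroup.mem_centralizer_iff]
      intro u hu
      have h3 := h1 hu
      rw [Subgroup.mem_centralizer_iff] at h3
      exact (h3 a (Set.mem_iUnion.2 ⟨i, ha⟩)).symm)
  intro a ha b hb
  have h3 := h2 hb
  rw [Subgroup.mem_centralizer_iff] at h3
  exact h3 a ha

theorem sup_sq (h : DichSys W L) : ∀ a ∈ ⨆ i, W i, a * a = 1 := by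
  intro a ha
  have key : a ∈ ⨆ i, W i ∧ a * a = 1 := by
    refine Subgroup.iSup_induction W (C := fun x => x ∈ ⨆ i, W i ∧ x * x = 1) ha ?_ ?_ ?_
    · intro i x hx
      exact ⟨le_iSup W i hx, h.hW2 i x hx⟩
    · exact ⟨one_mem _, by simp⟩
    · rintro x y ⟨hx, hx2⟩ ⟨hy, hy2⟩
      refine ⟨mul_mem hx hy, ?_⟩
      calc x * y * (x * y) = x * (y * x) * y := by group
        _ = x * (x * y) * y := by rw [h.sup_comm y hy x hx]
        _ = (x * x) * (y * y) := by group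
        _ = 1 := by rw [hx2, hy2, one_mul]
  exact key.2

theorem sup_inv (h : DichSys W L) : ∀ a ∈ ⨆ i, W i, a⁻¹ = a :=
  fun a ha => inv_eq_of_mul_eq_one_left (h.sup_sq a ha)

theorem sup_norm (h : DichSys W L) : ∀ l ∈ L, ∀ a ∈ ⨆ i, W i, l * a * l⁻¹ ∈ ⨆ i, W i := by
  intro l hl a ha
  have h1 : (⨆ i, W i).map (MulAut.conj l).toMonoidHom ≤ ⨆ i, W i := by
    rw [Subgroup.map_iSup]
    exact iSup_le (fun i => by
      obtain ⟨j, hj⟩ := h.hperm l hl i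
      rw [hj]; exact le_iSup W j)
  exact h1 ⟨a, ha, rfl⟩

theorem sup_card [Finite G] (h : DichSys W L) (hk : ∃ i j : ι, i ≠ j) :
    16 ≤ Nat.card ↥(⨆ i, W i) := by
  obtain ⟨i, j, hij⟩ := hk
  have hdisj : Disjoint (W i) (W j) := h.hind.pairwiseDisjoint hij
  have hinj := Subgroup.mul_injective_of_disjoint hdisj
  let g : ↥(W i) × ↥(W j) → ↥(⨆ i, W i) :=
    fun p => ⟨p.1.1 * p.2.1, mul_mem (le_iSup W i p.1.2) (le_iSup W j p.2.2)⟩
  have hg : Function.Injective g := by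
    intro p q hpq
    apply hinj
    exact congrArg Subtype.val hpq
  have := Nat.card_le_card_of_injective g hg
  rw [Nat.card_prod, h.hW4 i, h.hW4 j] at this
  exact this

theorem cent_iff (h : DichSys W L) {n : G} (hn : n ∉ L) {b' : G} (hb' : b' ∈ ⨆ i, W i)
    (hb'1 : b' ≠ 1) (hb'L : n * b' * n⁻¹ ∈ L) {b : G} (hb : b ∈ ⨆ i, W i) :
    b * (n * b' * n⁻¹) = (n * b' * n⁻¹) * b ↔ n⁻¹ * b * n ∈ L := by
  constructor
  · intro hc
    apply h.hP2 b' hb' hb'1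
    rw [Subgroup.mem_centralizer_iff]
    intro x hx
    rw [Set.mem_singleton_iff] at hx
    subst hx
    calc x * (n⁻¹ * b * n) = n⁻¹ * ((n * x * n⁻¹) * b) * n := by group
      _ = n⁻¹ * (b * (n * x * n⁻¹)) * n := by rw [hc]
      _ = n⁻¹ * b * n * x := by group
  · intro hL
    have hc'U : (n⁻¹ * b * n) * b' * (n⁻¹ * b * n)⁻¹ * b'⁻¹ ∈ ⨆ i, W i :=
      mul_mem (h.sup_norm _ hL _ hb') (inv_mem hb')
    have e : n * ((n⁻¹ * b * n) * b' * (n⁻¹ * b * n)⁻¹ * b'⁻¹) * n⁻¹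
        = b * ((n * b' * n⁻¹) * b⁻¹ * (n * b' * n⁻¹)⁻¹) := by group
    have hcU : n * ((n⁻¹ * b * n) * b' * (n⁻¹ * b * n)⁻¹ * b'⁻¹) * n⁻¹ ∈ ⨆ i, W i := by
      rw [e]
      exact mul_mem hb (h.sup_norm _ hb'L _ (inv_mem hb))
    have hc1 : (n⁻¹ * b * n) * b' * (n⁻¹ * b * n)⁻¹ * b'⁻¹ = 1 := by
      by_contra hne
      exact hn (h.hP3 _ hc'U hne n hcU)
    have h2 : b * (n * b' * n⁻¹) * b⁻¹ * (n * b' * n⁻¹)⁻¹ = 1 := by
      calc b * (n * b' * n⁻¹) * b⁻¹ * (n * b' * n⁻¹)⁻¹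
          = n * ((n⁻¹ * b * n) * b' * (n⁻¹ * b * n)⁻¹ * b'⁻¹) * n⁻¹ := by group
        _ = 1 := by rw [hc1]; group
    have h3 := mul_eq_one_iff_eq_inv.1 h2
    rw [inv_inv] at h3
    exact mul_inv_eq_iff_eq_mul.1 h3

theorem step1 [Finite G] (h : DichSys W L) (hk : ∃ i j : ι, i ≠ j) {n : G} (hn : n ∉ L) {x : G}
    (hx : x ∈ ⨆ i, W i) (hx1 : x ≠ 1) (hxn : n * x * n⁻¹ ∈ L) :
    ∃ d1 ∈ ⨆ i, W i, ∃ d2 ∈ ⨆ i, W i, d1 ≠ 1 ∧ d2 ≠ 1 ∧ d1 ≠ d2 ∧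
      n⁻¹ * d1 * n ∈ L ∧ n⁻¹ * d2 * n ∈ L := by
  have htt : (n * x * n⁻¹) * (n * x * n⁻¹) = 1 := by
    calc (n * x * n⁻¹) * (n * x * n⁻¹) = n * (x * x) * n⁻¹ := by group
      _ = 1 := by rw [h.sup_sq x hx]; group
  have hfp := fp_card (U := ⨆ i, W i) h.sup_comm h.sup_sq htt
    (fun a ha => h.sup_norm _ hxn a ha)
  have h16 := h.sup_card hk
  have hC4 : 2 < Nat.card ↥((⨆ i, W i) ⊓ Subgroup.centralizer {n * x * n⁻¹}) := by
    by_contra hlt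
    push Not at hlt
    have : Nat.card ↥((⨆ i, W i) ⊓ Subgroup.centralizer {n * x * n⁻¹}) ^ 2 ≤ 2 ^ 2 :=
      Nat.pow_le_pow_left hlt 2
    omega
  have : Fintype ↥((⨆ i, W i) ⊓ Subgroup.centralizer {n * x * n⁻¹}) := Fintype.ofFinite _
  rw [Nat.card_eq_fintype_card, Fintype.two_lt_card_iff] at hC4
  obtain ⟨a, b, c, hab, hac, hbc⟩ := hC4
  have key : ∀ d : ↥((⨆ i, W i) ⊓ Subgroup.centralizer {n * x * n⁻¹}), n⁻¹ * d.1 * n ∈ L := by
    intro d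
    apply (h.cent_iff hn hx hx1 hxn (Subgroup.mem_inf.1 d.2).1).1
    have h3 := (Subgroup.mem_inf.1 d.2).2
    rw [Subgroup.mem_centralizer_iff] at h3
    exact (h3 _ rfl).symm
  have hne : ∀ d e : ↥((⨆ i, W i) ⊓ Subgroup.centralizer {n * x * n⁻¹}), d ≠ e → d.1 ≠ e.1 :=
    fun d e hde hc => hde (Subtype.ext hc)
  have hone : ∀ d : ↥((⨆ i, W i) ⊓ Subgroup.centralizer {n * x * n⁻¹}), d ≠ 1 → d.1 ≠ 1 :=
    fun d hd hc => hd (Subtype.ext hc)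
  by_cases ha1 : a = 1
  · subst ha1
    exact ⟨b.1, (Subgroup.mem_inf.1 b.2).1, c.1, (Subgroup.mem_inf.1 c.2).1, hone b hab.symm, hone c hac.symm, hne b c hbc, key b, key c⟩
  · by_cases hb1 : b = 1
    · subst hb1
      exact ⟨a.1, (Subgroup.mem_inf.1 a.2).1, c.1, (Subgroup.mem_inf.1 c.2).1, hone a ha1, hone c hbc.symm, hne a c hac, key a, key c⟩
    · exact ⟨a.1, (Subgroup.mem_inf.1 a.2).1, b.1, (Subgroup.mem_inf.1 b.2).1, hone a ha1, hone b hb1, hne a b hab, key a, key b⟩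

/-- if `u` is an involution, `a * (u a u⁻¹)` commutes with `u` (inside an abelian group). -/
theorem mul_conj_comm (h : DichSys W L) {u a : G} (hu : u * u = 1) (ha : a ∈ ⨆ i, W i)
    (ha' : u * a * u⁻¹ ∈ ⨆ i, W i) :
    (a * (u * a * u⁻¹)) * u = u * (a * (u * a * u⁻¹)) := by
  have huinv : u⁻¹ = u := inv_eq_of_mul_eq_one_left hu
  have e1 : u * a = (u * a * u⁻¹) * u := by group
  have e2 : u * (u * a * u⁻¹) = a * u := by
    calc u * (u * a * u⁻¹) = (u * u) * a * u⁻¹ := by group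
      _ = a * u := by rw [hu, one_mul, huinv]
  calc a * (u * a * u⁻¹) * u = a * ((u * a * u⁻¹) * u) := by group
    _ = a * (u * a) := by rw [← e1]
    _ = (a * u) * a := by group
    _ = (u * (u * a * u⁻¹)) * a := by rw [e2]
    _ = u * ((u * a * u⁻¹) * a) := by group
    _ = u * (a * (u * a * u⁻¹)) := by rw [h.sup_comm _ ha' a ha]

theorem exists_ne_one (h : DichSys W L) (i : ι) : ∃ a ∈ W i, a ≠ 1 := by
  by_contra hc
  push Not at hc
  have : W i = ⊥ := (Subgroup.eq_bot_iff_forall _).2 hc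
  have h4 := h.hW4 i
  rw [this, Subgroup.card_bot] at h4
  omega

theorem lemA (h : DichSys W L) {u1 u2 u3 : G} (hu1 : u1 ∈ L) (hu2 : u2 ∈ L) (hu3 : u3 ∈ L)
    (h1 : u1 * u1 = 1) (h12 : u3 = u1 * u2) (h21 : u3 = u2 * u1)
    (hc2 : ∀ b ∈ ⨆ i, W i, (b * u1 = u1 * b ↔ b * u2 = u2 * b))
    (hc3 : ∀ b ∈ ⨆ i, W i, (b * u1 = u1 * b ↔ b * u3 = u3 * b)) (i : ι) :
    (W i).map (MulAut.conj u1).toMonoidHom = W i := by
  obtain ⟨j, hj⟩ := h.hperm u1 hu1 i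
  by_contra hne
  have hji : j ≠ i := by rintro rfl; exact hne hj
  have hdisj : Disjoint (W i) (W j) := h.hind.pairwiseDisjoint hji.symm
  obtain ⟨a, ha, ha1⟩ := h.exists_ne_one i
  have hWU : ∀ i, W i ≤ ⨆ i, W i := fun i => le_iSup W i
  have ha1j : u1 * a * u1⁻¹ ∈ W j := conj_mem_of_map_eq hj ha
  have hcomm1 := h.mul_conj_comm h1 (hWU i ha) (hWU j ha1j)
  have hcomm2 : (a * (u1 * a * u1⁻¹)) * u2 = u2 * (a * (u1 * a * u1⁻¹)) :=
    (hc2 _ (mul_mem (hWU i ha) (hWU j ha1j))).1 hcomm1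
  have h23 : (u2 * a * u2⁻¹) * (u3 * a * u3⁻¹) = a * (u1 * a * u1⁻¹) := by
    have e3 : u3 * a * u3⁻¹ = u2 * (u1 * a * u1⁻¹) * u2⁻¹ := by rw [h21]; group
    rw [e3]
    calc u2 * a * u2⁻¹ * (u2 * (u1 * a * u1⁻¹) * u2⁻¹)
        = (u2 * (a * (u1 * a * u1⁻¹))) * u2⁻¹ := by group
      _ = ((a * (u1 * a * u1⁻¹)) * u2) * u2⁻¹ := by rw [hcomm2]
      _ = a * (u1 * a * u1⁻¹) := by group
  obtain ⟨j2, hj2⟩ := h.hperm u2 hu2 i
  obtain ⟨j3, hj3⟩ := h.hperm u3 hu3 i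
  have ha2j : u2 * a * u2⁻¹ ∈ W j2 := conj_mem_of_map_eq hj2 ha
  have ha3j : u3 * a * u3⁻¹ ∈ W j3 := conj_mem_of_map_eq hj3 ha
  have hnot1 : ¬ a * u1 = u1 * a := by
    intro hc
    have e : u1 * a * u1⁻¹ = a := by rw [← hc]; group
    rw [e] at ha1j
    exact ha1 (Subgroup.disjoint_def.1 hdisj ha ha1j)
  by_cases hj2i : j2 = i
  · rw [hj2i] at ha2j
    have ha3j' : u3 * a * u3⁻¹ ∈ W j := by
      have e : u3 * a * u3⁻¹ = u1 * (u2 * a * u2⁻¹) * u1⁻¹ := by rw [h12]; group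
      rw [e]; exact conj_mem_of_map_eq hj ha2j
    have e : a⁻¹ * (u2 * a * u2⁻¹) = (u1 * a * u1⁻¹) * (u3 * a * u3⁻¹)⁻¹ := by
      have e2 : u2 * a * u2⁻¹ = a * (u1 * a * u1⁻¹) * (u3 * a * u3⁻¹)⁻¹ := by
        rw [← h23]; group
      rw [e2]; group
    have hmem_i : a⁻¹ * (u2 * a * u2⁻¹) ∈ W i := mul_mem (inv_mem ha) ha2j
    have hmem_j : a⁻¹ * (u2 * a * u2⁻¹) ∈ W j := by
      rw [e]; exact mul_mem ha1j (inv_mem ha3j')
    have h5 := Subgroup.disjoint_def.1 hdisj hmem_i hmem_j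
    rw [inv_mul_eq_one] at h5
    apply hnot1
    apply (hc2 a (hWU i ha)).2
    exact (mul_inv_eq_iff_eq_mul.1 h5.symm).symm
  by_cases hj3i : j3 = i
  · rw [hj3i] at ha3j
    have ha2j' : u2 * a * u2⁻¹ ∈ W j := by
      have e : u2 * a * u2⁻¹ = u1 * (u3 * a * u3⁻¹) * u1⁻¹ := by
        rw [h12]
        calc u2 * a * u2⁻¹ = (u1 * u1) * u2 * a * u2⁻¹ * (u1 * u1)⁻¹ := by rw [h1]; group
          _ = u1 * (u1 * u2 * a * (u1 * u2)⁻¹) * u1⁻¹ := by group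
      rw [e]; exact conj_mem_of_map_eq hj ha3j
    have h23' : (u3 * a * u3⁻¹) * (u2 * a * u2⁻¹) = a * (u1 * a * u1⁻¹) := by
      rw [h.sup_comm _ (hWU i ha3j) _ (hWU j ha2j')]; exact h23
    have e : a⁻¹ * (u3 * a * u3⁻¹) = (u1 * a * u1⁻¹) * (u2 * a * u2⁻¹)⁻¹ := by
      have e2 : u3 * a * u3⁻¹ = a * (u1 * a * u1⁻¹) * (u2 * a * u2⁻¹)⁻¹ := by
        rw [← h23']; group
      rw [e2]; group
    have hmem_i : a⁻¹ * (u3 * a * u3⁻¹) ∈ W i := mul_mem (inv_mem ha) ha3j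
    have hmem_j : a⁻¹ * (u3 * a * u3⁻¹) ∈ W j := by
      rw [e]; exact mul_mem ha1j (inv_mem ha2j')
    have h5 := Subgroup.disjoint_def.1 hdisj hmem_i hmem_j
    rw [inv_mul_eq_one] at h5
    apply hnot1
    apply (hc3 a (hWU i ha)).2
    exact (mul_inv_eq_iff_eq_mul.1 h5.symm).symm
  · have e : a = (u2 * a * u2⁻¹) * (u3 * a * u3⁻¹) * (u1 * a * u1⁻¹)⁻¹ := by
      rw [h23]; group
    have hsup : a ∈ ⨆ j, ⨆ (_ : j ≠ i), W j := by
      rw [e]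
      exact mul_mem (mul_mem (le_iSup₂ (f := fun j _ => W j) j2 hj2i ha2j)
        (le_iSup₂ (f := fun j _ => W j) j3 hj3i ha3j))
        (inv_mem (le_iSup₂ (f := fun j _ => W j) j hji ha1j))
    exact ha1 (Subgroup.disjoint_def.1 (h.hind i) ha hsup)

theorem lemB [Finite G] (h : DichSys W L) {u1 u2 u3 : G} (h1 : u1 * u1 = 1) (h2 : u2 * u2 = 1)
    (h12 : u3 = u1 * u2)
    (hc2 : ∀ b ∈ ⨆ i, W i, (b * u1 = u1 * b ↔ b * u2 = u2 * b))
    (hc3 : ∀ b ∈ ⨆ i, W i, (b * u1 = u1 * b ↔ b * u3 = u3 * b))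
    (hn1 : ∀ i, (W i).map (MulAut.conj u1).toMonoidHom = W i)
    (hn2 : ∀ i, (W i).map (MulAut.conj u2).toMonoidHom = W i) (i : ι) :
    ∀ a ∈ W i, a * u1 = u1 * a := by
  intro a ha
  by_contra hne
  have hWU : ∀ i, W i ≤ ⨆ i, W i := fun i => le_iSup W i
  have hne2 : ¬ a * u2 = u2 * a := fun hc => hne ((hc2 a (hWU i ha)).2 hc)
  have hne3 : ¬ a * u3 = u3 * a := fun hc => hne ((hc3 a (hWU i ha)).2 hc)
  have ha1 : u1 * a * u1⁻¹ ∈ W i := conj_mem_of_map_eq (hn1 i) ha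
  have ha2 : u2 * a * u2⁻¹ ∈ W i := conj_mem_of_map_eq (hn2 i) ha
  have hainv : a⁻¹ = a := inv_eq_of_mul_eq_one_left (h.hW2 i a ha)
  obtain ⟨c1, hc1def⟩ : ∃ c1, c1 = a * (u1 * a * u1⁻¹) := ⟨_, rfl⟩
  obtain ⟨c2, hc2def⟩ : ∃ c2, c2 = a * (u2 * a * u2⁻¹) := ⟨_, rfl⟩
  have hc1W : c1 ∈ W i := by rw [hc1def]; exact mul_mem ha ha1
  have hc2W : c2 ∈ W i := by rw [hc2def]; exact mul_mem ha ha2
  have hc1u : c1 * u1 = u1 * c1 := by
    rw [hc1def]; exact h.mul_conj_comm h1 (hWU i ha) (hWU i ha1)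
  have hc2u2 : c2 * u2 = u2 * c2 := by
    rw [hc2def]; exact h.mul_conj_comm h2 (hWU i ha) (hWU i ha2)
  have hc2u : c2 * u1 = u1 * c2 := (hc2 c2 (hWU i hc2W)).2 hc2u2
  have hc1ne : c1 ≠ 1 := by
    intro hc
    rw [hc1def] at hc
    have e := eq_inv_of_mul_eq_one_right hc
    rw [hainv] at e
    exact hne (mul_inv_eq_iff_eq_mul.1 e).symm
  have hc2ne : c2 ≠ 1 := by
    intro hc
    rw [hc2def] at hc
    have e := eq_inv_of_mul_eq_one_right hc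
    rw [hainv] at e
    exact hne2 (mul_inv_eq_iff_eq_mul.1 e).symm
  have hc12 : c1 ≠ c2 := by
    intro hc
    rw [hc1def, hc2def] at hc
    have e : u1 * a * u1⁻¹ = u2 * a * u2⁻¹ := mul_left_cancel hc
    apply hne3
    have e3 : u3 * a * u3⁻¹ = a := by
      calc u3 * a * u3⁻¹ = u1 * (u2 * a * u2⁻¹) * u1⁻¹ := by rw [h12]; group
        _ = u1 * (u1 * a * u1⁻¹) * u1⁻¹ := by rw [e]
        _ = (u1 * u1) * a * (u1 * u1)⁻¹ := by group
        _ = a := by rw [h1]; group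
    exact (mul_inv_eq_iff_eq_mul.1 e3).symm
  have hc2inv : c2⁻¹ = c2 := inv_eq_of_mul_eq_one_left (h.hW2 i c2 hc2W)
  have hsub : ({1, c1, c2, c1 * c2} : Set G) ⊆ (W i : Set G) := by
    intro x hx
    simp only [Set.mem_insert_iff, Set.mem_singleton_iff] at hx
    rcases hx with rfl | rfl | rfl | rfl
    · exact one_mem _
    · exact hc1W
    · exact hc2W
    · exact mul_mem hc1W hc2W
  have hcard : ({1, c1, c2, c1 * c2} : Set G).ncard = 4 := by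
    rw [Set.ncard_insert_of_notMem, Set.ncard_insert_of_notMem, Set.ncard_pair]
    · intro hc
      exact hc1ne (by simpa using hc)
    · simp only [Set.mem_insert_iff, Set.mem_singleton_iff, not_or]
      exact ⟨hc12, fun hc => hc2ne (by simpa using hc)⟩
    · simp only [Set.mem_insert_iff, Set.mem_singleton_iff, not_or]
      refine ⟨fun hc => hc1ne hc.symm, fun hc => hc2ne hc.symm, fun hc => ?_⟩
      have e := eq_inv_of_mul_eq_one_left hc.symm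
      rw [hc2inv] at e
      exact hc12 e
  have heq : ({1, c1, c2, c1 * c2} : Set G) = (W i : Set G) :=
    Set.eq_of_subset_of_ncard_le hsub
      (by rw [hcard, ← Nat.card_coe_set_eq]; exact (h.hW4 i).le) (Set.toFinite _)
  have hmem : a ∈ ({1, c1, c2, c1 * c2} : Set G) := by rw [heq]; exact ha
  have hall : ∀ y ∈ ({1, c1, c2, c1 * c2} : Set G), y * u1 = u1 * y := by
    intro y hy
    simp only [Set.mem_insert_iff, Set.mem_singleton_iff] at hy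
    rcases hy with rfl | rfl | rfl | rfl
    · simp
    · exact hc1u
    · exact hc2u
    · calc c1 * c2 * u1 = c1 * (c2 * u1) := by group
        _ = c1 * (u1 * c2) := by rw [hc2u]
        _ = (c1 * u1) * c2 := by group
        _ = (u1 * c1) * c2 := by rw [hc1u]
        _ = u1 * (c1 * c2) := by group
  exact hne (hall a hmem)

theorem half [Finite G] (h : DichSys W L) {n : G} (hn : n ∉ L) {b1 b2 : G}
    (hb1 : b1 ∈ ⨆ i, W i) (hb2 : b2 ∈ ⨆ i, W i) (hb11 : b1 ≠ 1) (hb21 : b2 ≠ 1) (hb12 : b1 ≠ b2)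
    (hL1 : n * b1 * n⁻¹ ∈ L) (hL2 : n * b2 * n⁻¹ ∈ L) :
    ∀ a ∈ ⨆ i, W i, n⁻¹ * a * n ∈ L := by
  have hb3U : b1 * b2 ∈ ⨆ i, W i := mul_mem hb1 hb2
  have hb31 : b1 * b2 ≠ 1 := by
    intro hc
    apply hb12
    have e := eq_inv_of_mul_eq_one_left hc
    rw [e, h.sup_inv b2 hb2]
  have h12 : n * (b1 * b2) * n⁻¹ = (n * b1 * n⁻¹) * (n * b2 * n⁻¹) := by group
  have h21 : n * (b1 * b2) * n⁻¹ = (n * b2 * n⁻¹) * (n * b1 * n⁻¹) := by
    rw [h.sup_comm b1 hb1 b2 hb2]; group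
  have hL3 : n * (b1 * b2) * n⁻¹ ∈ L := by rw [h12]; exact mul_mem hL1 hL2
  have hsq : ∀ b ∈ ⨆ i, W i, (n * b * n⁻¹) * (n * b * n⁻¹) = 1 := by
    intro b hb
    calc (n * b * n⁻¹) * (n * b * n⁻¹) = n * (b * b) * n⁻¹ := by group
      _ = 1 := by rw [h.sup_sq b hb]; group
  have e1 := fun b hb => h.cent_iff hn hb1 hb11 hL1 (b := b) hb
  have e2 := fun b hb => h.cent_iff hn hb2 hb21 hL2 (b := b) hb
  have e3 := fun b hb => h.cent_iff hn hb3U hb31 hL3 (b := b) hb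
  have c12 : ∀ b ∈ ⨆ i, W i,
      (b * (n * b1 * n⁻¹) = (n * b1 * n⁻¹) * b ↔ b * (n * b2 * n⁻¹) = (n * b2 * n⁻¹) * b) :=
    fun b hb => (e1 b hb).trans (e2 b hb).symm
  have c13 : ∀ b ∈ ⨆ i, W i,
      (b * (n * b1 * n⁻¹) = (n * b1 * n⁻¹) * b ↔
        b * (n * (b1 * b2) * n⁻¹) = (n * (b1 * b2) * n⁻¹) * b) :=
    fun b hb => (e1 b hb).trans (e3 b hb).symm
  have c21 : ∀ b ∈ ⨆ i, W i,
      (b * (n * b2 * n⁻¹) = (n * b2 * n⁻¹) * b ↔ b * (n * b1 * n⁻¹) = (n * b1 * n⁻¹) * b) :=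
    fun b hb => (c12 b hb).symm
  have c23 : ∀ b ∈ ⨆ i, W i,
      (b * (n * b2 * n⁻¹) = (n * b2 * n⁻¹) * b ↔
        b * (n * (b1 * b2) * n⁻¹) = (n * (b1 * b2) * n⁻¹) * b) :=
    fun b hb => (e2 b hb).trans (e3 b hb).symm
  have nA1 := h.lemA hL1 hL2 hL3 (hsq b1 hb1) h12 h21 c12 c13
  have nA2 := h.lemA hL2 hL1 hL3 (hsq b2 hb2) h21 h12 c21 c23
  have key := fun i => h.lemB (hsq b1 hb1) (hsq b2 hb2) h12 c12 c13 nA1 nA2 i
  have hle : (⨆ i, W i) ≤ Subgroup.centralizer {n * b1 * n⁻¹} :=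
    iSup_le (fun i a ha => by
      rw [Subgroup.mem_centralizer_iff]
      intro y hy
      rw [Set.mem_singleton_iff] at hy
      subst hy
      exact (key i a ha).symm)
  intro a ha
  apply (e1 a ha).1
  have h3 := hle ha
  rw [Subgroup.mem_centralizer_iff] at h3
  exact (h3 _ rfl).symm

end DichSys

/-- **Dichotomy lemma** (step 5.3 of the `(U)`-case of S2951/S2952). -/
theorem dich [Finite G] {ι : Type*} [Finite ι] (W : ι → Subgroup G) (L : Subgroup G)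
    (hW4 : ∀ i, Nat.card ↥(W i) = 4) (hW2 : ∀ i, ∀ w ∈ W i, w * w = 1)
    (hcomm : ∀ i j, i ≠ j → ∀ a ∈ W i, ∀ b ∈ W j, a * b = b * a) (hind : iSupIndep W)
    (hk : ∃ i j : ι, i ≠ j)
    (hperm : ∀ l ∈ L, ∀ i, ∃ j, (W i).map (MulAut.conj l).toMonoidHom = W j)
    (hP2 : ∀ u ∈ ⨆ i, W i, u ≠ 1 → Subgroup.centralizer ({u} : Set G) ≤ L)
    (hP3 : ∀ u ∈ ⨆ i, W i, u ≠ 1 → ∀ g : G, g * u * g⁻¹ ∈ ⨆ i, W i → g ∈ L)
    (n : G) (hn : n ∉ L) (x : G) (hx : x ∈ ⨆ i, W i) (hx1 : x ≠ 1) (hxn : n * x * n⁻¹ ∈ L) :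
    ∀ a ∈ ⨆ i, W i, ∀ b ∈ ⨆ i, W i, a * (n * b * n⁻¹) = (n * b * n⁻¹) * a := by
  have h : DichSys W L := ⟨hW4, hW2, hcomm, hind, hperm, hP2, hP3⟩
  obtain ⟨d1, hd1, d2, hd2, hd11, hd21, hd12, hdL1, hdL2⟩ := h.step1 hk hn hx hx1 hxn
  have hn' : n⁻¹ ∉ L := fun hc => hn (by simpa using inv_mem hc)
  have hdL1' : n⁻¹ * d1 * n⁻¹⁻¹ ∈ L := by rw [inv_inv]; exact hdL1
  have hdL2' : n⁻¹ * d2 * n⁻¹⁻¹ ∈ L := by rw [inv_inv]; exact hdL2
  obtain ⟨e1, he1, e2, he2, he11, he21, he12, heL1, heL2⟩ := h.step1 hk hn' hd1 hd11 hdL1'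
  rw [inv_inv] at heL1 heL2
  have H1 := h.half hn he1 he2 he11 he21 he12 heL1 heL2
  have H2 := h.half hn' hd1 hd2 hd11 hd21 hd12 hdL1' hdL2'
  intro a ha b hb
  have hbL : n * b * n⁻¹ ∈ L := by
    have h3 := H2 b hb
    rw [inv_inv] at h3
    exact h3
  by_cases hb1 : b = 1
  · subst hb1; simp
  · exact (h.cent_iff hn hb hb1 hbL ha).2 (H1 a ha)

end Cfsg.Agent.Lib.Helper41.KS12
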